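import Mathlib
import Cfsg.Prelude.Def_OddOrderLocal
import Cfsg.Agent.Lib.Helper1.Hall
import Cfsg.Agent.Lib.Helper1.HallConj
import Cfsg.Agent.Lib.Helper1.HallLe
import Cfsg.Agent.Lib.Helper35.BG.Basic
import Cfsg.Agent.Lib.Helper46.Amalgam2

/-!
Generic tools for the Bender–Glauberman chain (helper74): Hall-type conjugation of a subgroup of
coprime order into a subgroup of coprime index (solvable groups), index of a factor in a product,
the Frattini argument for relative Sylow subgroups, normal Hall subgroups contain all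
`π`-subgroups.
-/

set_option autoImplicit false

namespace Cfsg.Agent.Lib.Helper74.BG

open Cfsg Cfsg.Agent.Lib.Helper46 Cfsg.Agent.Lib.Helper35.BG
open scoped Pointwise

/-- Split a positive number `N` as `m * n` with `m` prime to `n` and to `i`, all primes of `n`
dividing `i`. -/
theorem exists_coprime_split (i : ℕ) : ∀ N : ℕ, 0 < N →
    ∃ m n : ℕ, N = m * n ∧ m.Coprime n ∧ m.Coprime i ∧ ∀ p : ℕ, p.Prime → p ∣ n → p ∣ i := by
  intro N
  induction N using Nat.strong_induction_on with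
  | _ N ih =>
    intro hN
    by_cases hc : N.Coprime i
    · exact ⟨N, 1, (mul_one N).symm, Nat.coprime_one_right N, hc,
        fun p hp h => absurd (Nat.dvd_one.mp h) hp.one_lt.ne'⟩
    · rw [Nat.Prime.not_coprime_iff_dvd] at hc
      obtain ⟨p, hp, hpN, hpi⟩ := hc
      obtain ⟨e, N', hN', hNe⟩ := Nat.exists_eq_pow_mul_and_not_dvd hN.ne' p hp.one_lt.ne'
      have hN'pos : 0 < N' := by
        rcases Nat.eq_zero_or_pos N' with h | h
        · exact absurd (h ▸ dvd_zero p) hN'
        · exact h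
      have he : e ≠ 0 := by
        rintro rfl
        rw [pow_zero, one_mul] at hNe
        exact hN' (hNe ▸ hpN)
      have hlt : N' < N := by
        rw [hNe]
        have h1 : 1 < p ^ e := Nat.one_lt_pow he hp.one_lt
        nlinarith
      obtain ⟨m, n, hmn, hcop, hmi, hn⟩ := ih N' hlt hN'pos
      have hmp : m.Coprime p := Nat.Coprime.coprime_dvd_right hpi hmi
      refine ⟨m, p ^ e * n, ?_, ?_, hmi, ?_⟩
      · rw [hNe, hmn]; ring
      · exact Nat.Coprime.mul_right (Nat.Coprime.pow_right e hmp) hcop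
      · intro q hq hqd
        rcases (Nat.Prime.dvd_mul hq).mp hqd with h | h
        · have := (Nat.prime_dvd_prime_iff_eq hq hp).mp (hq.dvd_of_dvd_pow h)
          rw [this]; exact hpi
        · exact hn q hq h

/-- In a finite solvable group, a subgroup `Y` of order prime to the index of `D` is conjugate
into `D`. -/
theorem exists_conj_le_of_coprime_index.{u} {Γ : Type u} [Group Γ] [Finite Γ]
    [Group.IsSolvable Γ] (D Y : Subgroup Γ) (h : (Nat.card Y).Coprime D.index) :
    ∃ g : Γ, MulAut.conj g • Y ≤ D := by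
  obtain ⟨m, n, hmn, hcop, hmi, hn⟩ := exists_coprime_split D.index (Nat.card Γ) Nat.card_pos
  have hYn : (Nat.card Y).Coprime n := by
    by_contra hc
    rw [Nat.Prime.not_coprime_iff_dvd] at hc
    obtain ⟨p, hp, h1, h2⟩ := hc
    exact (Nat.Prime.not_coprime_iff_dvd.mpr ⟨p, hp, h1, hn p hp h2⟩) h
  obtain ⟨H, hH, hYH⟩ := Cfsg.Agent.Lib.Helper1.hall_le m n hmn hcop Y hYn
  have hD : Nat.card D * D.index = m * n := by rw [Subgroup.card_mul_index, hmn]
  have hmD : m ∣ Nat.card D := Nat.Coprime.dvd_of_dvd_mul_right hmi (hD ▸ dvd_mul_right m n)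
  obtain ⟨n₁, hn₁⟩ := hmD
  have hm0 : 0 < m := by
    rcases Nat.eq_zero_or_pos m with h0 | h0
    · rw [h0, zero_mul] at hmn
      exact absurd hmn Nat.card_pos.ne'
    · exact h0
  have hn₁n : n₁ ∣ n := by
    refine ⟨D.index, ?_⟩
    have : m * (n₁ * D.index) = m * n := by rw [← mul_assoc, ← hn₁, hD]
    exact (Nat.eq_of_mul_eq_mul_left hm0 this).symm
  have hcop₁ : m.Coprime n₁ := Nat.Coprime.coprime_dvd_right hn₁n hcop
  obtain ⟨H₀, hH₀⟩ := Cfsg.Agent.Lib.Helper1.hall_exists (G := ↥D) m n₁ hn₁ hcop₁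
  have hH₁ : Nat.card (H₀.map D.subtype) = m := by
    rw [Subgroup.card_map_of_injective D.subtype_injective, hH₀]
  obtain ⟨g, hg⟩ := Cfsg.Agent.Lib.Helper1.hall_conj m n hmn hcop H (H₀.map D.subtype) hH hH₁
  refine ⟨g, ?_⟩
  calc MulAut.conj g • Y ≤ MulAut.conj g • H := Subgroup.pointwise_smul_le_pointwise_smul_iff.mpr hYH
    _ = H₀.map D.subtype := hg
    _ ≤ D := Subgroup.map_subtype_le _

/-- Inside a solvable subgroup `L`, a subgroup `Y ≤ L` of order prime to the index of `D` in `L`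
is conjugate into `D` by an element of `L`. -/
theorem exists_mem_conj_le_of_coprime_relIndex {G : Type*} [Group G] [Finite G]
    {L D Y : Subgroup G} (hL : Group.IsSolvable L) (hYL : Y ≤ L)
    (h : (Nat.card Y).Coprime (D.relIndex L)) :
    ∃ l ∈ L, Y.map (MulAut.conj l).toMonoidHom ≤ D := by
  haveI := hL
  have h' : (Nat.card (Y.subgroupOf L)).Coprime (D.subgroupOf L).index := by
    rw [Nat.card_congr (Subgroup.subgroupOfEquivOfLe hYL).toEquiv]
    exact h
  obtain ⟨g, hg⟩ := exists_conj_le_of_coprime_index (D.subgroupOf L) (Y.subgroupOf L) h'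
  refine ⟨(g : G), g.2, ?_⟩
  rintro _ ⟨y, hy, rfl⟩
  have h1 : MulAut.conj g • (⟨y, hYL hy⟩ : L) ∈ MulAut.conj g • Y.subgroupOf L :=
    Subgroup.smul_mem_pointwise_smul _ _ _ (Subgroup.mem_subgroupOf.mpr hy)
  have h2 := Subgroup.mem_subgroupOf.mp (hg h1)
  simpa [MulAut.conj_apply] using h2

/-- If `N ≤ L` is normalized by `L` and `L ⊆ N D`, then the index of `D` in `L` divides `|N|`. -/
theorem relIndex_dvd_card_of_forall_mul {G : Type*} [Group G] [Finite G] {N D L : Subgroup G}
    (hNL : N ≤ L) (hnorm : L ≤ Subgroup.normalizer (N : Set G))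
    (h : ∀ l ∈ L, ∃ n ∈ N, ∃ d ∈ D, l = n * d) : D.relIndex L ∣ Nat.card N := by
  haveI hN' : (N.subgroupOf L).Normal := Subgroup.normal_subgroupOf_of_le_normalizer hnorm
  have htop : D.subgroupOf L ⊔ N.subgroupOf L = ⊤ := by
    rw [eq_top_iff]
    rintro ⟨l, hl⟩ -
    obtain ⟨n, hn, d, hd, hnd⟩ := h l hl
    have hdL : d ∈ L := by
      have : d = n⁻¹ * l := by rw [hnd]; group
      rw [this]
      exact L.mul_mem (L.inv_mem (hNL hn)) hl
    have e : (⟨l, hl⟩ : L) = ⟨n, hNL hn⟩ * ⟨d, hdL⟩ := Subtype.ext hnd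
    rw [e]
    exact Subgroup.mul_mem _ (Subgroup.mem_sup_right (Subgroup.mem_subgroupOf.mpr hn))
      (Subgroup.mem_sup_left (Subgroup.mem_subgroupOf.mpr hd))
  have h1 : (N.subgroupOf L).index = (N.subgroupOf L).relIndex (D.subgroupOf L) := by
    rw [← Subgroup.relIndex_top_right, ← htop, Subgroup.relIndex_sup_right]
  have h2 : Nat.card (N.subgroupOf L) * (N.subgroupOf L).index = Nat.card L :=
    Subgroup.card_mul_index _
  have h3 : Nat.card (D.subgroupOf L) * (D.subgroupOf L).index = Nat.card L :=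
    Subgroup.card_mul_index _
  have h4 : Nat.card ((N.subgroupOf L).subgroupOf (D.subgroupOf L)) *
      (N.subgroupOf L).relIndex (D.subgroupOf L) = Nat.card (D.subgroupOf L) :=
    Subgroup.card_mul_index _
  have hr0 : 0 < (N.subgroupOf L).relIndex (D.subgroupOf L) := by
    rw [← h1]
    exact Nat.pos_of_ne_zero Subgroup.index_ne_zero_of_finite
  have h5 : Nat.card (N.subgroupOf L) =
      Nat.card ((N.subgroupOf L).subgroupOf (D.subgroupOf L)) * (D.subgroupOf L).index := by
    have h6 : Nat.card (N.subgroupOf L) * (N.subgroupOf L).relIndex (D.subgroupOf L) =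
        Nat.card ((N.subgroupOf L).subgroupOf (D.subgroupOf L)) * (D.subgroupOf L).index *
          (N.subgroupOf L).relIndex (D.subgroupOf L) := by
      rw [← h1, h2, ← h3, ← h4, h1]; ring
    exact Nat.eq_of_mul_eq_mul_right hr0 h6
  have h7 : Nat.card (N.subgroupOf L) = Nat.card N :=
    Nat.card_congr (Subgroup.subgroupOfEquivOfLe hNL).toEquiv
  rw [← h7, h5]
  exact dvd_mul_left _ _

/-- Frattini argument: if `P` is a Sylow `p`-subgroup of `K` and `l` normalizes `K`, then
`l = k n` with `k ∈ K` and `n` normalizing `P`. -/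
theorem frattini_arg {G : Type*} [Group G] [Finite G] {p : ℕ} [Fact p.Prime] {K P : Subgroup G}
    (hP : IsSylowIn p P K) {l : G} (hl : l ∈ Subgroup.normalizer (K : Set G)) :
    ∃ k ∈ K, k⁻¹ * l ∈ Subgroup.normalizer (P : Set G) := by
  have h1 : IsSylowIn p (P.map (MulAut.conj l).toMonoidHom) K := by
    have := hP.map (MulAut.conj l)
    rwa [map_conj_eq_of_mem_normalizer hl] at this
  obtain ⟨k, hk, hk2⟩ := hP.exists_conj h1
  refine ⟨k, hk, ?_⟩
  apply mem_normalizer_of_map_conj_eq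
  rw [Cfsg.Agent.Lib.Helper46.map_conj_mul, hk2, ← Cfsg.Agent.Lib.Helper46.map_conj_mul,
    inv_mul_cancel, Cfsg.Agent.Lib.Helper35.BG.map_conj_one]

/-- A `p`-subgroup of `H` whose index in `H` is prime to `p` is a Sylow `p`-subgroup of `H`. -/
theorem isSylowIn_of_not_dvd_relIndex {G : Type*} [Group G] [Finite G] {p : ℕ} [Fact p.Prime]
    {E H : Subgroup G} (hE : IsPGroup p E) (hEH : E ≤ H) (h : ¬ p ∣ E.relIndex H) :
    IsSylowIn p E H := by
  obtain ⟨R, hR, hER⟩ := exists_isSylowIn_ge hE hEH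
  have h1 : E.relIndex R * R.relIndex H = E.relIndex H := Subgroup.relIndex_mul_relIndex E R H hER hR.1
  have h2 : E.relIndex R ∣ Nat.card R := Subgroup.relIndex_dvd_card E R
  rw [hR.2] at h2
  obtain ⟨j, -, hj⟩ := (Nat.dvd_prime_pow Fact.out).mp h2
  have hj0 : j = 0 := by
    by_contra hne
    apply h
    rw [← h1, hj]
    exact Dvd.dvd.mul_right (dvd_pow_self p hne) _
  rw [hj0, pow_zero, Subgroup.relIndex_eq_one] at hj
  have : E = R := le_antisymm hER hj
  rw [this]; exact hR

/-- A normal Hall `π`-subgroup `N` of `M` contains every `π`-subgroup of `M`. -/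
theorem le_of_isPiHallOf_of_normal {G : Type*} [Group G] [Finite G] {π : Set ℕ}
    {N M Z : Subgroup G} (hHall : IsPiHallOf π N M)
    (hnorm : M ≤ Subgroup.normalizer (N : Set G)) (hZM : Z ≤ M)
    (hZ : ∀ p : ℕ, p.Prime → p ∣ Nat.card Z → p ∈ π) : Z ≤ N := by
  haveI hN' : (N.subgroupOf M).Normal := Subgroup.normal_subgroupOf_of_le_normalizer hnorm
  have h1 : (N.subgroupOf M).relIndex (Z.subgroupOf M) ∣ (N.subgroupOf M).index :=
    Subgroup.relIndex_dvd_index_of_normal _ _
  have h2 : (N.subgroupOf M).relIndex (Z.subgroupOf M) ∣ Nat.card (Z.subgroupOf M) :=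
    Subgroup.relIndex_dvd_card _ _
  rw [Nat.card_congr (Subgroup.subgroupOfEquivOfLe hZM).toEquiv] at h2
  have h3 : (N.subgroupOf M).relIndex (Z.subgroupOf M) = 1 := by
    by_contra hne
    obtain ⟨p, hp, hpd⟩ := Nat.exists_prime_and_dvd hne
    exact hHall.2.2 p hp (hZ p hp (hpd.trans h2)) (hpd.trans h1)
  rw [Subgroup.relIndex_eq_one] at h3
  intro z hz
  exact Subgroup.mem_subgroupOf.mp (h3 (Subgroup.mem_subgroupOf.mpr hz : (⟨z, hZM hz⟩ : M) ∈ Z.subgroupOf M))

/-- A Sylow subgroup of a nilpotent subgroup `H` is normalized by `H`. -/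
theorem le_normalizer_of_isSylowIn_of_nilpotent {G : Type*} [Group G] [Finite G] {p : ℕ}
    [Fact p.Prime] {P H : Subgroup G} (hH : Group.IsNilpotent H) (hP : IsSylowIn p P H) :
    H ≤ Subgroup.normalizer (P : Set G) := by
  haveI := hH
  obtain ⟨S, rfl⟩ := hP.exists_sylow
  haveI hn : (S : Subgroup H).Normal :=
    Sylow.normal_of_normalizerCondition Group.normalizerCondition_of_isNilpotent S
  intro x hx
  rw [Subgroup.mem_normalizer_iff]
  have key : ∀ y : G, y ∈ H → ∀ w, w ∈ (S : Subgroup H).map H.subtype →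
      y * w * y⁻¹ ∈ (S : Subgroup H).map H.subtype := by
    rintro y hy _ ⟨w, hw, rfl⟩
    exact ⟨⟨y, hy⟩ * w * ⟨y, hy⟩⁻¹, hn.conj_mem w hw ⟨y, hy⟩, rfl⟩
  intro w
  constructor
  · exact key x hx w
  · intro h
    have := key x⁻¹ (H.inv_mem hx) _ h
    simpa [mul_assoc] using this

end Cfsg.Agent.Lib.Helper74.BG
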