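import Mathlib
import Cfsg.Agent.Lib.Helper50.BG.S1430Defs
import Cfsg.Agent.Lib.Helper76.BG.S1420Core

/-!
# S1430, CASE I, package ComplGe (helper74)

A Hall `κ(M)`-subgroup `K` of a maximal subgroup `M` lies in a complement of `M_σ`:
`κ(M)` is disjoint from `σ(M)` by definition, so `K` is a `σ(M)'`-subgroup of `M`, and
`Helper76.BG.exists_compl_ge` (Hall in the solvable group `M`) applies.
-/

set_option autoImplicit false

namespace Cfsg.Agent.Lib.Helper74.BG

open Cfsg

universe u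

/-- A `κ(M)`-subgroup of `M` (e.g. a Hall `κ(M)`-subgroup) lies in a complement of `M_σ`. -/
theorem exists_compl_ge_of_kappa {G : Type u} [Group G] [Finite G]
    (hG : Cfsg.IsMinSimpleOddOrder G)
    (h1350 : type_of% (@Cfsg.CfsgFrozen.S1350 G _ _ hG))
    (M : Subgroup G) (hM : IsCoatom M) (K : Subgroup G) (hKM : K ≤ M)
    (hK : ∀ p : ℕ, p.Prime → p ∣ Nat.card K → p ∈ Cfsg.kappa M) :
    ∃ E : Subgroup G, Cfsg.IsComplIn E (Cfsg.sigmaCore M) M ∧ K ≤ E :=
  Cfsg.Agent.Lib.Helper76.BG.exists_compl_ge hG M hM (h1350 M hM).1 K hKM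
    (fun q hq hdvd => (hK q hq hdvd).2.2.1)

/-- Package ComplGe of helper50's CASE I of S1430. -/
theorem lemComplGe : Cfsg.Agent.Lib.Helper50.BG30.LemComplGe.{u} := by
  intro G _ _ hG hy M hM K hK
  exact exists_compl_ge_of_kappa hG hy.h1350 M hM K hK.1 hK.2.1

end Cfsg.Agent.Lib.Helper74.BG
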